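import Mathlib
import Cfsg.Agent.H21.SN.Tools
import Cfsg.Agent.H107.FixThreeRows
import Cfsg.Agent.SignalizersComponents.SLQuasisimple
import Cfsg.Agent.SignalizersComponents.ComponentImage

/-!
# `SL₂(F)` acting by left multiplication on a subspace `(M₂(F), α det)` of a quadratic space (helper292, S3831)

* `J : M₂(F) → V` linear with `Q (J X) = α det X`;
* `T` : the group `SL₂(F)` acts on `V`, by left multiplication on the image of `J`, trivially on the orthogonal complement;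
* `false_of_J` : an automorphism `x` of order three of `PΩ(V)` induced by a (semilinear) isometry `g` with
  `g (J X) = J (θ X)`, such that `θ (h X) = τ h (θ X)` for some nontrivial map `τ` on `SL₂(F)`, is not `RN`.
-/

set_option autoImplicit false
set_option linter.unusedSectionVars false

namespace Cfsg.Agent.H292.SN

open Subgroup Cfsg QuadraticMap Cfsg.Agent.H952.Rc Cfsg.Agent.H459.Rad
open Cfsg.Agent.LieClassical.OrthCore Cfsg.Agent.LieClassical.OrthTrans
open Cfsg.Agent.H21.SN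
open scoped commutatorElement

universe u v

variable {F : Type u} {V : Type v} [Field F] [AddCommGroup V] [Module F V] {Q : QuadraticForm F V}

/-- the polar form of the determinant -/
def pd (X Y : Matrix (Fin 2) (Fin 2) F) : F := X 0 0 * Y 1 1 + X 1 1 * Y 0 0 - X 0 1 * Y 1 0 - X 1 0 * Y 0 1

theorem det_add_two (X Y : Matrix (Fin 2) (Fin 2) F) : (X + Y).det = X.det + Y.det + pd X Y := by
  simp only [Matrix.det_fin_two, Matrix.add_apply, pd]
  ring

theorem pd_eq_zero {X : Matrix (Fin 2) (Fin 2) F} (h : ∀ Y, pd X Y = 0) : X = 0 := by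
  have h1 := h !![0, 0; 0, 1]
  have h2 := h !![1, 0; 0, 0]
  have h3 := h !![0, 0; 1, 0]
  have h4 := h !![0, 1; 0, 0]
  simp only [pd, Matrix.of_apply, Matrix.cons_val', Matrix.cons_val_zero, Matrix.cons_val_one,
    Matrix.cons_val_fin_one, mul_one, mul_zero, add_zero, sub_zero, zero_add, zero_sub, neg_eq_zero] at h1 h2 h3 h4
  ext i j
  fin_cases i <;> fin_cases j
  · exact h1
  · exact h3
  · exact h4
  · exact h2

section Emb

variable {α : F} {J : Matrix (Fin 2) (Fin 2) F →ₗ[F] V}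

theorem polar_J (hJ : ∀ X, Q (J X) = α * X.det) (X Y : Matrix (Fin 2) (Fin 2) F) :
    polar Q (J X) (J Y) = α * pd X Y := by
  unfold polar
  rw [← map_add, hJ, hJ, hJ, det_add_two]
  ring

/-- the projection to `M₂(F)` -/
def prj (Q : QuadraticForm F V) (α : F) (J : Matrix (Fin 2) (Fin 2) F →ₗ[F] V) : V →ₗ[F] Matrix (Fin 2) (Fin 2) F where
  toFun v := !![α⁻¹ * polar Q v (J !![0, 0; 0, 1]), -(α⁻¹ * polar Q v (J !![0, 0; 1, 0]));
    -(α⁻¹ * polar Q v (J !![0, 1; 0, 0])), α⁻¹ * polar Q v (J !![1, 0; 0, 0])]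
  map_add' u v := by
    ext i j
    fin_cases i <;> fin_cases j <;> simp [polar_add_left] <;> ring
  map_smul' c v := by
    ext i j
    fin_cases i <;> fin_cases j <;> simp [polar_smul_left] <;> ring

theorem pd_prj (hα : α ≠ 0) (v : V) (X : Matrix (Fin 2) (Fin 2) F) :
    α * pd (prj Q α J v) X = polar Q v (J X) := by
  have hX : X = X 0 0 • !![1, 0; 0, 0] + X 0 1 • !![0, 1; 0, 0] + X 1 0 • !![0, 0; 1, 0] + X 1 1 • !![0, 0; 0, 1] := by
    ext i j
    fin_cases i <;> fin_cases j <;> simp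
  conv_rhs => rw [hX]
  simp only [map_add, map_smul, polar_add_right, polar_smul_right, smul_eq_mul]
  have e1 : (prj Q α J v) 0 0 = α⁻¹ * polar Q v (J !![0, 0; 0, 1]) := rfl
  have e2 : (prj Q α J v) 0 1 = -(α⁻¹ * polar Q v (J !![0, 0; 1, 0])) := rfl
  have e3 : (prj Q α J v) 1 0 = -(α⁻¹ * polar Q v (J !![0, 1; 0, 0])) := rfl
  have e4 : (prj Q α J v) 1 1 = α⁻¹ * polar Q v (J !![1, 0; 0, 0]) := rfl
  rw [pd, e1, e2, e3, e4]
  field_simp
  ring

theorem prj_J (hα : α ≠ 0) (hJ : ∀ X, Q (J X) = α * X.det) (X : Matrix (Fin 2) (Fin 2) F) :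
    prj Q α J (J X) = X := by
  have h1 : prj Q α J (J X) - X = 0 := by
    apply pd_eq_zero
    intro Y
    have h2 := pd_prj (Q := Q) (J := J) hα (J X) Y
    rw [polar_J hJ] at h2
    have h3 := mul_left_cancel₀ hα h2
    have e : pd (prj Q α J (J X) - X) Y = pd (prj Q α J (J X)) Y - pd X Y := by
      simp only [pd, Matrix.sub_apply]; ring
    rw [e, h3, sub_self]
  exact sub_eq_zero.1 h1

theorem J_injective (hα : α ≠ 0) (hJ : ∀ X, Q (J X) = α * X.det) : Function.Injective J := fun X Y h => by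
  rw [← prj_J hα hJ X, h, prj_J hα hJ]

theorem prj_eq_zero_iff (hα : α ≠ 0) {w : V} : prj Q α J w = 0 ↔ ∀ X, polar Q w (J X) = 0 := by
  constructor
  · intro h X
    rw [← pd_prj hα, h]
    simp [pd]
  · intro h
    apply pd_eq_zero
    intro Y
    have h1 := pd_prj (Q := Q) (J := J) hα w Y
    rw [h Y] at h1
    exact (mul_eq_zero.1 h1).resolve_left hα

/-- the linear map -/
def tl (Q : QuadraticForm F V) (α : F) (J : Matrix (Fin 2) (Fin 2) F →ₗ[F] V) (h : Matrix (Fin 2) (Fin 2) F) :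
    V →ₗ[F] V := LinearMap.id + J ∘ₗ (LinearMap.mulLeft F (h - 1)) ∘ₗ prj Q α J

theorem tl_apply (h : Matrix (Fin 2) (Fin 2) F) (v : V) : tl Q α J h v = v + J ((h - 1) * prj Q α J v) := rfl

theorem tl_mul (hα : α ≠ 0) (hJ : ∀ X, Q (J X) = α * X.det) (h k : Matrix (Fin 2) (Fin 2) F) (v : V) :
    tl Q α J (h * k) v = tl Q α J h (tl Q α J k v) := by
  rw [tl_apply, tl_apply, tl_apply, map_add, prj_J hα hJ, add_assoc, ← map_add]
  congr 2
  noncomm_ring

theorem tl_one (v : V) : tl Q α J 1 v = v := by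
  rw [tl_apply, sub_self, zero_mul, map_zero, add_zero]

/-- **the action of `SL₂(F)`** -/
def T (hα : α ≠ 0) (hJ : ∀ X, Q (J X) = α * X.det) : Matrix.SpecialLinearGroup (Fin 2) F →* (V ≃ₗ[F] V) where
  toFun h := LinearEquiv.ofLinearMap (tl Q α J h.1) (tl Q α J (h⁻¹).1)
    (by
      apply LinearMap.ext
      intro v
      rw [LinearMap.comp_apply, ← tl_mul hα hJ, ← Matrix.SpecialLinearGroup.coe_mul, mul_inv_cancel,
        Matrix.SpecialLinearGroup.coe_one, tl_one, LinearMap.id_apply])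
    (by
      apply LinearMap.ext
      intro v
      rw [LinearMap.comp_apply, ← tl_mul hα hJ, ← Matrix.SpecialLinearGroup.coe_mul, inv_mul_cancel,
        Matrix.SpecialLinearGroup.coe_one, tl_one, LinearMap.id_apply])
  map_one' := by
    apply LinearEquiv.ext
    intro v
    exact tl_one v
  map_mul' h k := by
    apply LinearEquiv.ext
    intro v
    exact tl_mul hα hJ h.1 k.1 v

theorem T_apply (hα : α ≠ 0) (hJ : ∀ X, Q (J X) = α * X.det) (h : Matrix.SpecialLinearGroup (Fin 2) F) (v : V) :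
    T hα hJ h v = v + J ((h.1 - 1) * prj Q α J v) := rfl

theorem T_add (hα : α ≠ 0) (hJ : ∀ X, Q (J X) = α * X.det) (h : Matrix.SpecialLinearGroup (Fin 2) F) {w : V}
    (hw : prj Q α J w = 0) (X : Matrix (Fin 2) (Fin 2) F) : T hα hJ h (w + J X) = w + J (h.1 * X) := by
  rw [T_apply, map_add, hw, zero_add, prj_J hα hJ, add_assoc, ← map_add]
  congr 2
  noncomm_ring

theorem T_J (hα : α ≠ 0) (hJ : ∀ X, Q (J X) = α * X.det) (h : Matrix.SpecialLinearGroup (Fin 2) F)
    (X : Matrix (Fin 2) (Fin 2) F) : T hα hJ h (J X) = J (h.1 * X) := by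
  have := T_add hα hJ h (w := 0) (map_zero _) X
  rwa [zero_add, zero_add] at this

theorem T_mem_O (hα : α ≠ 0) (hJ : ∀ X, Q (J X) = α * X.det) (h : Matrix.SpecialLinearGroup (Fin 2) F) :
    T hα hJ h ∈ O Q := by
  rw [mem_O]
  intro v
  have h1 : (h.1 * prj Q α J v).det = (prj Q α J v).det := by
    rw [Matrix.det_mul, h.2, one_mul]
  have h2 : h.1 * prj Q α J v = prj Q α J v + (h.1 - 1) * prj Q α J v := by noncomm_ring
  rw [h2, det_add_two] at h1
  rw [T_apply, Q_add, hJ, ← pd_prj hα]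
  linear_combination α * h1

/-- the action has values in `E Q` -/
theorem T_mem_E [Finite F] (hG : Good Q) (hq : 4 ≤ Nat.card F) (hα : α ≠ 0) (hJ : ∀ X, Q (J X) = α * X.det)
    (h : Matrix.SpecialLinearGroup (Fin 2) F) : T hα hJ h ∈ E Q := by
  have hqs := Cfsg.Agent.SignalizersComponents.SLQuasisimple.isQuasisimple_two hq
  have hperf : commutator (Matrix.SpecialLinearGroup (Fin 2) F) = ⊤ := Group.isPerfect_def.1 hqs.1
  have h1 : h ∈ commutator (Matrix.SpecialLinearGroup (Fin 2) F) := by rw [hperf]; exact mem_top h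
  have h2 : T hα hJ h ∈ (commutator (Matrix.SpecialLinearGroup (Fin 2) F)).map (T hα hJ) := ⟨h, h1, rfl⟩
  rw [commutator_def, Subgroup.map_commutator] at h2
  refine hG.commutator_le_E (Subgroup.commutator_mono ?_ ?_ h2) <;>
  · rintro _ ⟨k, -, rfl⟩
    exact T_mem_O hα hJ k

/-- **The contradiction.** -/
theorem false_of_J [Finite F] [FiniteDimensional F V] (hG : Good Q) (hd : 5 ≤ Module.finrank F V) (hq : 4 ≤ Nat.card F)
    (hNS : NoS3 (Matrix.SpecialLinearGroup (Fin 2) F)) {Γ : Subgroup (V ≃ₗ[F] V)} (hΓ : Γ = E Q)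
    {x : MulAut (↥Γ ⧸ center ↥Γ)} {g : Equiv.Perm V} (hadd : ∀ u v, g (u + v) = g u + g v) {φ : F → F} (hφ0 : φ 0 = 0)
    (hform : ∀ u v, polar Q (g u) (g v) = φ (polar Q u v)) (hx : Comp x g) (hR : RN x) (hα : α ≠ 0)
    (hJ : ∀ X, Q (J X) = α * X.det) {θ : Matrix (Fin 2) (Fin 2) F → Matrix (Fin 2) (Fin 2) F}
    (hθ : Function.Surjective θ) (hgJ : ∀ X, g (J X) = J (θ X))
    {τ : Matrix.SpecialLinearGroup (Fin 2) F → Matrix.SpecialLinearGroup (Fin 2) F}
    (hτ : ∀ h X, θ (h.1 * X) = (τ h).1 * θ X) (hne : ∃ h, τ h ≠ h) : False := by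
  have hΓf : Finite ↥Γ := by
    have : Finite V := Module.finite_of_finite F
    have : Finite (V ≃ₗ[F] V) := Finite.of_injective (fun h : V ≃ₗ[F] V => (h : V → V)) DFunLike.coe_injective
    infer_instance
  have hmem : ∀ h, T hα hJ h ∈ Γ := fun h => by rw [hΓ]; exact T_mem_E hG hq hα hJ h
  let ψ : Matrix.SpecialLinearGroup (Fin 2) F →* ↥Γ ⧸ center ↥Γ :=
    (QuotientGroup.mk' (center ↥Γ)).comp ((T hα hJ).codRestrict Γ hmem)
  have hψ : ∀ h, ψ h = QuotientGroup.mk' (center ↥Γ) ⟨T hα hJ h, hmem h⟩ := fun h => rfl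
  -- `x` acts through `τ`
  have hxψ : ∀ h, x (ψ h) = ψ (τ h) := by
    intro h
    rw [hψ, hψ]
    refine hx.apply fun v => ?_
    change T hα hJ (τ h) (g v) = g (T hα hJ h v)
    obtain ⟨w, hw⟩ : ∃ w, w = v - J (prj Q α J v) := ⟨_, rfl⟩
    have hv : v = w + J (prj Q α J v) := by rw [hw]; abel
    have hw0 : prj Q α J w = 0 := by rw [hw, map_sub, prj_J hα hJ, sub_self]
    have hgw : prj Q α J (g w) = 0 := by
      rw [prj_eq_zero_iff hα] at hw0 ⊢
      intro Y
      obtain ⟨Y', rfl⟩ := hθ Y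
      rw [← hgJ, hform, hw0, hφ0]
    obtain ⟨P, hP⟩ : ∃ P, P = prj Q α J v := ⟨_, rfl⟩
    rw [← hP] at hv
    rw [hv, hadd, hgJ, T_add hα hJ _ hgw, T_add hα hJ _ hw0, hadd, hgJ, hτ]
  -- a vector in the complement
  obtain ⟨w, hw0, hw⟩ := exists_perp_ne (Q := Q) ![J !![1, 0; 0, 0], J !![0, 1; 0, 0], J !![0, 0; 1, 0],
    J !![0, 0; 0, 1]] (by omega)
  have hprj : prj Q α J w = 0 := by
    have e1 : polar Q w (J !![1, 0; 0, 0]) = 0 := by rw [polar_comm]; exact hw 0
    have e2 : polar Q w (J !![0, 1; 0, 0]) = 0 := by rw [polar_comm]; exact hw 1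
    have e3 : polar Q w (J !![0, 0; 1, 0]) = 0 := by rw [polar_comm]; exact hw 2
    have e4 : polar Q w (J !![0, 0; 0, 1]) = 0 := by rw [polar_comm]; exact hw 3
    ext i j
    fin_cases i <;> fin_cases j
    · change α⁻¹ * polar Q w (J !![0, 0; 0, 1]) = 0
      rw [e4, mul_zero]
    · change -(α⁻¹ * polar Q w (J !![0, 0; 1, 0])) = 0
      rw [e3, mul_zero, neg_zero]
    · change -(α⁻¹ * polar Q w (J !![0, 1; 0, 0])) = 0
      rw [e2, mul_zero, neg_zero]
    · change α⁻¹ * polar Q w (J !![1, 0; 0, 0]) = 0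
      rw [e1, mul_zero]
  have hTw : ∀ h, T hα hJ h w = w := by
    intro h
    have := T_add hα hJ h hprj 0
    rwa [mul_zero, map_zero, add_zero] at this
  -- `ψ` separates elements
  have hinj : Function.Injective ψ := by
    intro h k hhk
    rw [hψ, hψ, QuotientGroup.mk'_apply, QuotientGroup.mk'_apply, QuotientGroup.eq] at hhk
    obtain ⟨c, hc⟩ := center_scalar_orth hG hΓ hhk
    have hc' : ∀ v, ((T hα hJ h)⁻¹ * T hα hJ k) v = c • v := hc
    rw [← map_inv, ← map_mul] at hc'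
    have h1 := hc' w
    rw [hTw] at h1
    have hc1 : c = 1 := by
      have h2 : (c - 1) • w = 0 := by rw [sub_smul, one_smul, ← h1, sub_self]
      exact sub_eq_zero.1 ((smul_eq_zero.1 h2).resolve_right hw0)
    have h3 := hc' (J 1)
    rw [T_J, hc1, one_smul, mul_one] at h3
    have h4 := J_injective hα hJ h3
    have h5 : h⁻¹ * k = 1 := Subtype.ext h4
    exact inv_mul_eq_one.1 h5
  have hqs := Cfsg.Agent.SignalizersComponents.SLQuasisimple.isQuasisimple_two hq
  have hnt : Nontrivial ψ.range := by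
    obtain ⟨h, hh⟩ := hne
    exact ⟨⟨ψ (τ h), ⟨_, rfl⟩⟩, ⟨ψ h, ⟨_, rfl⟩⟩, fun h1 => hh (hinj (congrArg Subtype.val h1))⟩
  have hq2 : IsQuasisimple ψ.range :=
    Cfsg.Agent.SignalizersComponents.ComponentImage.isQuasisimple_of_surjective hqs ψ.rangeRestrict
      ψ.rangeRestrict_surjective hnt
  have hNM : NoS3 ψ.range := hNS.of_surjective ψ.rangeRestrict ψ.rangeRestrict_surjective
  obtain ⟨h, hh⟩ := hne
  apply hh
  apply hinj
  rw [← hxψ]
  refine hR.eq_of_quasisimple hNM ?_ hq2 ⟨h, rfl⟩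
  rintro _ ⟨k, rfl⟩
  exact ⟨τ k, (hxψ k).symm⟩

end Emb

end Cfsg.Agent.H292.SN
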